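import Mathlib
import Cfsg.Agent.Inv.Count
import Cfsg.Agent.Grp.Cores
import Cfsg.Agent.Grp.MinNormal
import Cfsg.Agent.Grp.MaxClass

/-! Bounds on group orders: Landau's theorem, and a Brauer–Fowler bound for four-groups. -/

set_option autoImplicit false

namespace Cfsg.Agent.Block

open Cfsg Subgroup Cfsg.Agent.Inv.Count

universe u

theorem exists_bound_unit_fractions (k : ℕ) : ∀ q : ℚ, ∃ N : ℕ, ∀ (ι : Type u) (s : Finset ι)
    (f : ι → ℕ), s.card ≤ k → (∀ i ∈ s, 0 < f i) → ∑ i ∈ s, (1 / f i : ℚ) = q →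
      ∀ i ∈ s, f i ≤ N := by
  classical
  induction k with
  | zero => exact fun q => ⟨0, fun ι s f hs _ _ i hi => by simp_all⟩
  | succ k ih =>
    intro q
    choose N hN using ih
    refine ⟨⌈(k + 1) / q⌉₊ + (Finset.range (⌈(k + 1) / q⌉₊ + 1)).sup fun n => N (q - 1 / n),
      fun ι s f hs hf hq i hi => ?_⟩
    obtain ⟨j, hj, hmin⟩ := s.exists_min_image f ⟨i, hi⟩
    have hj0 : (0 : ℚ) < f j := by exact_mod_cast hf j hj
    have hq0 : 0 < q := hq ▸ Finset.sum_pos (fun l hl => by have := hf l hl; positivity) ⟨i, hi⟩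
    have h1 : q ≤ (k + 1) * (1 / f j) := by
      rw [← hq]
      refine (Finset.sum_le_card_nsmul s _ (1 / f j : ℚ) fun l hl =>
        one_div_le_one_div_of_le hj0 (by exact_mod_cast hmin l hl)).trans ?_
      rw [nsmul_eq_mul]
      exact mul_le_mul_of_nonneg_right (by exact_mod_cast hs) (by positivity)
    have h2 : f j ≤ ⌈(k + 1) / q⌉₊ := by
      have : (f j : ℚ) ≤ (k + 1) / q := by
        rw [le_div_iff₀ hq0]
        rw [mul_one_div, le_div_iff₀ hj0] at h1
        linarith
      exact_mod_cast this.trans (Nat.le_ceil _)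
    by_cases hij : i = j
    · rw [hij]; omega
    have h3 := hN (q - 1 / f j) ι (s.erase j) f (by rw [Finset.card_erase_of_mem hj]; omega)
      (fun l hl => hf l (Finset.mem_of_mem_erase hl))
      (by rw [← hq, ← Finset.add_sum_erase s _ hj]; ring) i (Finset.mem_erase.2 ⟨hij, hi⟩)
    exact h3.trans ((Finset.le_sup (f := fun n : ℕ => N (q - 1 / n))
      (Finset.mem_range.2 (Nat.lt_succ_of_le h2))).trans (Nat.le_add_left _ _))

/-- Landau's theorem. -/
theorem landau (k : ℕ) : ∃ N : ℕ, ∀ (G : Type u) [Group G] [Finite G],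
    Nat.card (ConjClasses G) ≤ k → Nat.card G ≤ N := by
  classical
  obtain ⟨N, hN⟩ := exists_bound_unit_fractions.{u} k 1
  refine ⟨N, fun G _ _ hk => ?_⟩
  have := Fintype.ofFinite (ConjClasses G)
  choose x hx using fun C : ConjClasses G => ConjClasses.mk_surjective C
  have h1 := hN (ConjClasses G) Finset.univ (fun C => Nat.card (centralizer ({x C} : Set G)))
    (by simpa using hk) (fun _ _ => Nat.card_pos) ?_ (ConjClasses.mk 1) (Finset.mem_univ _)
  · have h2 : x (ConjClasses.mk 1) = 1 :=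
      isConj_one_left.1 (ConjClasses.mk_eq_mk_iff_isConj.1 (hx _))
    rwa [h2, (centralizer_eq_top_iff_subset.2 (by simp) : centralizer ({1} : Set G) = ⊤),
      card_top] at h1
  have h2 := Group.sum_card_conj_classes_eq_card G
  have h0 : (Nat.card G : ℚ) ≠ 0 := by exact_mod_cast Nat.card_pos.ne'
  rw [finsum_eq_sum_of_fintype] at h2
  apply mul_left_cancel₀ h0
  rw [mul_one, Finset.mul_sum]
  conv_rhs => rw [← h2]
  push_cast
  refine Finset.sum_congr rfl fun C _ => ?_
  have h3 := card_isConj_mul_card_centralizer (x C)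
  have h4 : C.carrier.ncard = Nat.card {y : G // IsConj (x C) y} := by
    rw [← Nat.card_coe_set_eq]
    refine Nat.card_congr (Equiv.subtypeEquivRight fun y => ?_)
    rw [ConjClasses.mem_carrier_iff_mk_eq, ← ConjClasses.mk_eq_mk_iff_isConj, hx, eq_comm]
  have h5 : (Nat.card (centralizer ({x C} : Set G)) : ℚ) ≠ 0 := by
    exact_mod_cast Nat.card_pos.ne'
  rw [h4, ← h3]
  push_cast
  field_simp

variable {G : Type*} [Group G] [Finite G]

theorem ncard_conj_mem_le (t : G) (T : Set G) :
    {g : G | g * t * g⁻¹ ∈ T}.ncard ≤ Nat.card (centralizer ({t} : Set G)) * T.ncard := by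
  classical
  have := Fintype.ofFinite G
  rw [Set.ncard_eq_toFinset_card' T, Set.ncard_eq_toFinset_card']
  refine Finset.card_le_mul_card_image_of_maps_to (f := fun g => g * t * g⁻¹)
    (fun g hg => by simpa using hg) _ fun y _ => ?_
  by_cases h : IsConj t y
  · rw [← card_conj_eq h, Nat.card_eq_fintype_card, Fintype.card_subtype]
    exact Finset.card_le_card fun g hg => by simp_all
  · rw [Finset.card_eq_zero.2 (Finset.filter_eq_empty_iff.2 fun g _ hg => h (isConj_iff.2 ⟨g, hg⟩))]
    exact Nat.zero_le _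

theorem card_le_of_mem_normal {t : G} {L : Subgroup G} [hL : L.Normal] (h : t ∈ L) :
    Nat.card G ≤ Nat.card (centralizer ({t} : Set G)) * Nat.card L := by
  have := ncard_conj_mem_le t L
  rwa [Set.eq_univ_of_forall (s := {g : G | g * t * g⁻¹ ∈ (L : Set G)}) fun g =>
    hL.conj_mem t h g, Set.ncard_univ, ← Nat.card_coe_set_eq] at this

/-- A four-group all of whose involutions have centralizers of order at most `c`. -/
def FourBound (G : Type*) [Group G] (c : ℕ) : Prop :=
  ∃ v w : G, v * v = 1 ∧ w * w = 1 ∧ v * w * (v * w) = 1 ∧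
    ∀ x ∈ ({v, w, v * w} : Set G), x ≠ 1 ∧ Nat.card (centralizer ({x} : Set G)) ≤ c

theorem FourBound.quotient {c : ℕ} (h : FourBound G c) (L : Subgroup G) [L.Normal] :
    Nat.card G ≤ c * Nat.card L ∨ FourBound (G ⧸ L) c := by
  obtain ⟨v, w, hv, hw, hvw, h⟩ := h
  by_cases hx : ∃ x ∈ ({v, w, v * w} : Set G), x ∈ L
  · obtain ⟨x, hx, hxL⟩ := hx
    exact Or.inl ((card_le_of_mem_normal hxL).trans (Nat.mul_le_mul_right _ (h x hx).2))
  push Not at hx
  refine Or.inr ⟨v, w, by rw [← QuotientGroup.mk_mul, hv]; rfl,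
    by rw [← QuotientGroup.mk_mul, hw]; rfl,
    by rw [← QuotientGroup.mk_mul, ← QuotientGroup.mk_mul, hvw]; rfl, fun y hy => ?_⟩
  obtain ⟨x, hx', rfl⟩ : ∃ x ∈ ({v, w, v * w} : Set G), (x : G ⧸ L) = y := by
    rcases hy with rfl | rfl | rfl
    exacts [⟨v, by simp, rfl⟩, ⟨w, by simp, rfl⟩, ⟨v * w, by simp, rfl⟩]
  exact ⟨fun h1 => hx x hx' ((QuotientGroup.eq_one_iff x).1 h1),
    (Grp.MaxClass.card_centralizer_quotient_le L x).trans (h x hx').2⟩

theorem FourBound.card_le_of_odd {c : ℕ} (h : FourBound G c) (L : Subgroup G) [hL : L.Normal]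
    (hodd : Odd (Nat.card L)) : Nat.card L ≤ c ^ 3 := by
  classical
  have := Fintype.ofFinite G
  obtain ⟨v, w, hv, hw, hvw, h⟩ := h
  have hodd' := odd_card_iff.1 hodd
  set Z := Finset.univ.filter fun z : G => Commute z w ∧ Nat.card (centralizer ({z} : Set G)) ≤ c
  have h1 : (L : Set G) ⊆ {g : G | g * v * g⁻¹ ∈
      (Z.biUnion fun z => Finset.univ.filter fun y => Commute z y : Finset G)} := by
    intro g hg
    have hg2 : g * v * g⁻¹ * (g * v * g⁻¹) = 1 := by rw [conj_mul, hv]; simp
    have hq : ((g * v * g⁻¹ * w : G) : G ⧸ L) = (v * w : G) := by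
      simp [(QuotientGroup.eq_one_iff g).2 hg]
    have hq2 : orderOf ((v * w : G) : G ⧸ L) = 2 := orderOf_eq_two_iff.2
      ⟨by rw [← QuotientGroup.mk_mul, hvw]; rfl, fun h1 => hodd' _ ((QuotientGroup.eq_one_iff _).1 h1)
        (orderOf_eq_two_iff.2 ⟨hvw, (h _ (by simp)).1⟩)⟩
    obtain ⟨z, hz, hz2, hz3, hz4⟩ := exists_central_involution hg2 hw (even_iff_two_dvd.2 (by
      rw [← hq2, ← hq]; exact orderOf_map_dvd (QuotientGroup.mk' L) _))
    have hz5 : (z : G ⧸ L) = (v * w : G) := eq_of_mem_zpowers (a := ((v * w : G) : G ⧸ L))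
      (by obtain ⟨k, rfl⟩ := hz; exact ⟨k, by rw [← hq]; rfl⟩) (mem_zpowers _)
      (orderOf_eq_two_iff.2 ⟨by rw [← QuotientGroup.mk_mul, mul_self_of_orderOf hz2]; rfl,
        fun h1 => hodd' _ ((QuotientGroup.eq_one_iff _).1 h1) hz2⟩) hq2
    have hz6 : IsConj z (v * w) := isConj_of_odd (mul_self_of_orderOf hz2) hvw
      (hodd.of_dvd_nat (L.orderOf_dvd_natCard ((QuotientGroup.eq_one_iff _).1 (by
        rw [QuotientGroup.mk_mul, hz5, ← QuotientGroup.mk_mul, hvw]; rfl))))
    exact Finset.mem_biUnion.2 ⟨z, Finset.mem_filter.2 ⟨Finset.mem_univ _, hz4,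
      (card_centralizer_of_isConj hz6).trans_le (h (v * w) (by simp)).2⟩,
      by simpa using hz3⟩
  have h2 : ∀ z : G, (Finset.univ.filter fun y => Commute z y).card =
      Nat.card (centralizer ({z} : Set G)) := fun z => by
    rw [Nat.card_eq_fintype_card, Fintype.card_subtype]
    exact congrArg _ (by ext y; simp [mem_centralizer_iff, commute_iff_eq])
  have h3 : Z.card ≤ c := le_trans (Finset.card_le_card fun z hz => by
    simp only [Z, Finset.mem_filter] at hz ⊢; exact ⟨hz.1, hz.2.1.symm⟩)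
      ((h2 w).trans_le (h w (by simp)).2)
  have h4 := (Set.ncard_le_ncard h1).trans (ncard_conj_mem_le v _)
  rw [Set.ncard_coe_finset, ← Nat.card_coe_set_eq] at h4
  have h5 := Finset.card_biUnion_le_card_mul Z (fun z => Finset.univ.filter fun y => Commute z y) c
    fun z hz => (h2 z).trans_le (Finset.mem_filter.1 hz).2.2
  calc Nat.card L ≤ c * (c * c) := h4.trans (Nat.mul_le_mul (h v (by simp)).2
        (h5.trans (Nat.mul_le_mul_right _ h3)))
    _ = c ^ 3 := by ring

/-- The Brauer–Fowler count. -/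
theorem exists_index_centralizer_le {t : G} (ht : t * t = 1) {c : ℕ}
    (hc : Nat.card (centralizer ({t} : Set G)) ≤ c) :
    Nat.card G ≤ c ∨ ∃ x : G, x ≠ 1 ∧ (centralizer ({x} : Set G)).index ≤ 2 * c ^ 2 := by
  classical
  have := Fintype.ofFinite G
  by_contra hcon
  push Not at hcon
  obtain ⟨h0, h1⟩ := hcon
  set K := Finset.univ.filter fun y => IsConj t y
  have hK : K.card * Nat.card (centralizer ({t} : Set G)) = Nat.card G := by
    rw [← card_isConj_mul_card_centralizer t,
      Nat.card_eq_fintype_card (α := {y // IsConj t y}), Fintype.card_subtype]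
  have hK2 : ∀ y ∈ K, y * y = 1 := fun y hy => by
    obtain ⟨g, rfl⟩ := isConj_iff.1 (Finset.mem_filter.1 hy).2
    rw [conj_mul, ht]; simp
  have h2 : (K ×ˢ K).card = ∑ x : G, ((K ×ˢ K).filter fun q => q.1 * q.2 = x).card :=
    Finset.card_eq_sum_card_fiberwise fun _ _ => Finset.mem_univ _
  have h3 : ∀ (x : G) (S : Finset G), (∀ q ∈ K ×ˢ K, q.1 * q.2 = x → q.1 ∈ S) →
      ((K ×ˢ K).filter fun q => q.1 * q.2 = x).card ≤ S.card := fun x S hS =>
    Finset.card_le_card_of_injOn Prod.fst (fun q hq => by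
      have := Finset.mem_filter.1 hq; exact hS q this.1 this.2) fun q hq q' hq' h => by
      have h4 := (Finset.mem_filter.1 hq).2.trans (Finset.mem_filter.1 hq').2.symm
      rw [h] at h4
      exact Prod.ext h (mul_left_cancel h4)
  have h4 : ∀ x ∈ Finset.univ.erase (1 : G), (2 * c ^ 2 + 1) *
      ((K ×ˢ K).filter fun q => q.1 * q.2 = x).card ≤ Nat.card G := fun x hx => by
    have h5 := ncard_conj_mem_le x {x⁻¹}
    rw [Set.ncard_singleton, mul_one, Set.ncard_eq_toFinset_card'] at h5
    rw [← (centralizer ({x} : Set G)).index_mul_card]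
    refine Nat.mul_le_mul (h1 x (Finset.ne_of_mem_erase hx)) ((h3 x _ fun q hq h => ?_).trans h5)
    rw [Finset.mem_product] at hq
    simpa [← h] using conj_mul_eq_inv (hK2 _ hq.1) (hK2 _ hq.2)
  have h5 := Finset.sum_le_card_nsmul _ _ _ h4
  rw [← Finset.mul_sum, smul_eq_mul] at h5
  rw [← Finset.add_sum_erase _ _ (Finset.mem_univ 1), Finset.card_product] at h2
  have h6 := h3 1 K fun q hq _ => (Finset.mem_product.1 hq).1
  have h7 : (Finset.univ.erase (1 : G)).card ≤ Nat.card G :=
    Finset.card_erase_le.trans (by simp)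
  have h8 : Nat.card G ≤ K.card * c := hK ▸ Nat.mul_le_mul_left _ hc
  set m := K.card
  have hm : 2 ≤ m := by
    by_contra h
    have : m * c ≤ 1 * c := Nat.mul_le_mul_right _ (by omega)
    omega
  have h9 : (2 * c ^ 2 + 1) * (m * m) ≤ (2 * c ^ 2 + 1) * m + (m * c) * (m * c) := by
    rw [h2, mul_add]
    exact Nat.add_le_add (Nat.mul_le_mul_left _ h6) (h5.trans (Nat.mul_le_mul (h7.trans h8) h8))
  have h10 : m * ((c ^ 2 + 1) * m) ≤ m * (2 * c ^ 2 + 1) := by nlinarith
  have h11 := Nat.le_of_mul_le_mul_left h10 (by omega)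
  nlinarith

theorem exists_normal_card_le (hO : pPrimeCore 2 G = ⊥) {x : G} (hx : x ≠ 1) :
    ∃ L : Subgroup G, L.Normal ∧ Even (Nat.card L) ∧ Nat.card L ≤
      2 ^ (Nat.card G).factorization 2 * (centralizer ({x} : Set G)).index.factorial := by
  classical
  obtain ⟨L, hL, hL1, hLx, hmin⟩ := Grp.exists_minNormal_le (normalClosure ({x} : Set G))
    fun h => hx (mem_bot.1 (h ▸ subset_normalClosure rfl))
  have hev : Even (Nat.card L) := by
    by_contra h
    exact hL1 (Grp.pPrimeCore_eq_bot_iff.1 hO L hL (Nat.coprime_two_right.2 (by simpa using h)))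
  refine ⟨L, hL, hev, ?_⟩
  set K := (centralizer ({x} : Set G)).normalCore
  rcases hmin (L ⊓ K) inferInstance inf_le_left with h | h
  · have h1 : K.index ≤ (centralizer ({x} : Set G)).index.factorial := by
      have := Fintype.ofFinite (G ⧸ centralizer ({x} : Set G))
      simp only [K]
      rw [normalCore_eq_ker, index_ker, index, Nat.card_eq_fintype_card (α := G ⧸ _),
        ← Fintype.card_perm, ← Nat.card_eq_fintype_card]
      exact card_le_card_group _
    have h2 : Nat.card L ≤ K.index := Nat.card_le_card_of_injective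
      (fun y : L => ((y : G) : G ⧸ K)) fun y z hyz => Subtype.ext (by
        have : (y : G)⁻¹ * z ∈ L ⊓ K := ⟨(y⁻¹ * z).2, QuotientGroup.eq.1 hyz⟩
        rw [h, mem_bot] at this
        exact inv_mul_eq_one.1 this)
    exact (h2.trans h1).trans (Nat.le_mul_of_pos_left _ (by positivity))
  · have h1 : normalClosure ({x} : Set G) ≤ centralizer (K : Set G) := by
      refine normalClosure_le_normal ?_
      rintro _ rfl y hy
      exact (normalCore_le _ hy _ rfl).symm
    have h2 : IsMulCommutative L := ⟨⟨fun y z => Subtype.ext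
      (h1 (hLx z.2) y (inf_eq_left.1 h y.2))⟩⟩
    have : Group.IsSolvable L := Group.isSolvable_of_comm fun y z => h2.1.1 y z
    obtain ⟨-, p, hp, hp2⟩ := Grp.minNormal_elementaryAbelian L hL1 hmin
    obtain ⟨t, ht, ht2⟩ := exists_involution_mem hev
    obtain rfl : 2 = p :=
      (Nat.prime_dvd_prime_iff_eq Nat.prime_two hp).1 (ht2 ▸ orderOf_dvd_of_pow_eq_one (hp2 t ht))
    obtain ⟨k, hk⟩ := IsPGroup.iff_card.1 (Grp.isPGroup_of_pow_eq_one hp2)
    have h3 : k ≤ (Nat.card G).factorization 2 :=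
      (hp.pow_dvd_iff_le_factorization Nat.card_pos.ne').1 (hk ▸ L.card_subgroup_dvd_card)
    exact (hk.trans_le (Nat.pow_le_pow_right two_pos h3)).trans
      (Nat.le_mul_of_pos_right _ (Nat.factorial_pos _))

theorem factorization_card_quotient_add (p : ℕ) (L : Subgroup G) :
    (Nat.card (G ⧸ L)).factorization p + (Nat.card L).factorization p =
      (Nat.card G).factorization p := by
  rw [card_eq_card_quotient_mul_card_subgroup L,
    Nat.factorization_mul Nat.card_pos.ne' Nat.card_pos.ne']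
  rfl

theorem exists_bound_fourBound (a c : ℕ) : ∃ N : ℕ, ∀ (G : Type u) [Group G] [Finite G],
    (Nat.card G).factorization 2 < a → FourBound G c → Nat.card G ≤ N := by
  induction a with
  | zero => exact ⟨0, fun G _ _ h => by omega⟩
  | succ a ih =>
    obtain ⟨N, hN⟩ := ih
    refine ⟨(c + (c + N) * (2 ^ a * (2 * c ^ 2).factorial)) * c ^ 3, fun G _ _ ha h => ?_⟩
    have hodd : Odd (Nat.card (pPrimeCore 2 G)) :=
      Nat.coprime_two_right.1 (Grp.pPrimeCore_coprime 2 G)
    have h1 := h.card_le_of_odd _ hodd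
    rcases h.quotient (pPrimeCore 2 G) with h2 | h2
    · exact h2.trans (Nat.mul_le_mul (Nat.le_add_right _ _) h1)
    rw [card_eq_card_quotient_mul_card_subgroup (pPrimeCore 2 G)]
    refine Nat.mul_le_mul ?_ h1
    have h3 := factorization_card_quotient_add 2 (pPrimeCore 2 G)
    obtain ⟨v, w, hv, -, -, h4⟩ := id h2
    rcases exists_index_centralizer_le hv (h4 v (by simp)).2 with h5 | ⟨x, hx, h5⟩
    · exact h5.trans (Nat.le_add_right _ _)
    obtain ⟨L, hL, hev, h6⟩ := exists_normal_card_le (Grp.pPrimeCore_quotient_pPrimeCore 2 G) hx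
    replace h6 := h6.trans (Nat.mul_le_mul (Nat.pow_le_pow_right two_pos (j := a) (by omega))
      (Nat.factorial_le h5))
    refine le_trans ?_ (Nat.le_add_left _ _)
    rcases h2.quotient L with h7 | h7
    · exact h7.trans (Nat.mul_le_mul (Nat.le_add_right _ _) h6)
    rw [card_eq_card_quotient_mul_card_subgroup L]
    refine Nat.mul_le_mul ((hN _ ?_ h7).trans (Nat.le_add_left _ _)) h6
    have h8 := factorization_card_quotient_add 2 L
    have h9 := Nat.prime_two.factorization_pos_of_dvd Nat.card_pos.ne' hev.two_dvd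
    omega

end Cfsg.Agent.Block
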