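import Mathlib
import Cfsg.Agent.Block.Bounds
import Cfsg.Agent.Block.Contrib
import Cfsg.Agent.Block.Principal
import Cfsg.Agent.S4717

/-! Groups of a given deficiency class. -/

set_option autoImplicit false

namespace Cfsg.Agent.Block

open Cfsg Cfsg.Agent.Char Subgroup

universe u

theorem exists_bound_only_principal (p : ℕ) [hp : Fact p.Prime] (a : ℕ) : ∃ N : ℕ,
    ∀ (G : Type u) [Group G] [Finite G] (M : Ideal AlgInt), IsPModular p M →
      (Nat.card G).factorization p ≤ a →
      (∀ B : Set (IrrCharacter G), IsPBlock M B → B = principalBlock M G) → Nat.card G ≤ N := by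
  obtain ⟨N, hN⟩ := landau.{u} (p ^ (2 * a) + 4)
  refine ⟨N, fun G _ _ M hM ha h => hN G ?_⟩
  have h1 : principalBlock M G = Set.univ := Set.eq_univ_of_forall fun χ =>
    h _ (isPBlock_blockOf χ) ▸ self_mem_blockOf hM χ
  have h2 := four_mul_card_le hM (isPBlock_principal (M := M) (G := G))
  have h3 := Nat.pow_le_pow_right hp.out.pos (Nat.mul_le_mul_left 2
    ((blockDefect_le p (principalBlock M G)).trans ha))
  rw [h1, Nat.card_univ, card_irr] at h2
  rw [h1] at h3
  omega

theorem exists_bound_deficiency (a n : ℕ) : ∃ N : ℕ,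
    ∀ (G : Type u) [Group G] [Finite G] (M : Ideal AlgInt) (r : ℕ) (E : Type u) [CommGroup E]
      [Finite E] (φ : E →* G) (Z : Subgroup E), IsPModular 2 M →
      (Nat.card G).factorization 2 ≤ a → Function.Injective φ → (∀ x : E, x * x = 1) →
      Nat.card E = 2 ^ (r + 1) → Z.index ≤ n → Z.map φ ≤ center G →
      (∀ B : Set (IrrCharacter G), IsPBlock M B → B ≠ principalBlock M G → blockDefect 2 B < r) →
      Nat.card G ≤ N := by
  induction n with
  | zero => exact ⟨0, fun G _ _ M r E _ _ φ Z _ _ _ _ _ h => absurd Z.index_ne_zero_of_finite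
      (by omega)⟩
  | succ n ih =>
    obtain ⟨c, hc⟩ := ih
    obtain ⟨N₀, hN₀⟩ := exists_bound_only_principal.{u} 2 a
    obtain ⟨N₁, hN₁⟩ := exists_bound_fourBound.{u} (a + 1) c
    refine ⟨N₀ + N₁ * 2 ^ a, fun G _ _ M r E _ _ φ Z hM ha hφ hE hcard hZ hZc hdef => ?_⟩
    have hn : (Z.map φ).Normal := ⟨fun z hz g => by
      rwa [mem_center_iff.1 (hZc hz) g, mul_inv_cancel_right]⟩
    have hZp : IsPGroup 2 (Z.map φ) := ((IsPGroup.of_card hcard).to_subgroup Z).map φ
    by_cases h2 : Z.index ≤ 2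
    · refine (hN₀ G M hM ha fun B hB => by_contra fun hne => ?_).trans (Nat.le_add_right _ _)
      obtain ⟨D, hD⟩ := exists_isDefectGroup hM hB
      have h3 := card_le_of_le (le_defectGroup_of_normal hM hB hD _ hZp)
      have h4 := Z.card_mul_index
      rw [card_defectGroup hM hB hD, card_map_of_injective hφ] at h3
      have h5 := Nat.pow_le_pow_right two_pos (Nat.succ_le_of_lt (hdef B hB hne))
      have h6 := Nat.mul_le_mul h3 h2
      rw [h4, hcard, pow_succ] at h6
      rw [pow_succ] at h5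
      have : 0 < 2 ^ r := by positivity
      omega
    have key : ∀ x ∉ Z, ((φ x : G) : G ⧸ Z.map φ) ≠ 1 ∧
        Nat.card (centralizer ({((φ x : G) : G ⧸ Z.map φ)} : Set (G ⧸ Z.map φ))) ≤ c := by
      intro x hx
      refine ⟨fun h => hx ((mem_map_iff_mem hφ).1 ((QuotientGroup.eq_one_iff _).1 h)),
        (Grp.MaxClass.card_centralizer_quotient_le _ _).trans ?_⟩
      have hmem : ∀ y : E, φ y ∈ centralizer ({φ x} : Set G) := fun y =>
        mem_centralizer_singleton_iff.2 (by rw [← map_mul, ← map_mul, mul_comm])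
      refine hc _ M r E (φ.codRestrict _ hmem) (Z ⊔ zpowers x) hM ?_
        (fun y z h => hφ (congrArg Subtype.val h)) hE hcard ?_ ?_
        ((S4717.result 2 M hM r).1 hdef _ ?_)
      · exact ((Nat.factorization_le_iff_dvd Nat.card_pos.ne' Nat.card_pos.ne').2
          (card_subgroup_dvd_card _) 2).trans ha
      · have := index_strictAnti (lt_of_le_of_ne (le_sup_left (a := Z) (b := zpowers x))
          fun h => hx (h ▸ mem_sup_right (mem_zpowers x)))
        omega
      · rw [map_le_iff_le_comap, sup_le_iff, zpowers_le]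
        refine ⟨fun z hz => mem_center_iff.2 fun g => Subtype.ext
          (mem_center_iff.1 (hZc ⟨z, hz, rfl⟩) g), mem_center_iff.2 fun g => Subtype.ext ?_⟩
        exact mem_centralizer_singleton_iff.1 g.2
      · obtain ⟨k, -, hk⟩ := (Nat.dvd_prime_pow Nat.prime_two (m := 1)).1
          (orderOf_dvd_of_pow_eq_one (x := φ x) (by rw [pow_one, sq, ← map_mul, hE, map_one]))
        exact ⟨k, hk⟩
    have := Fintype.ofFinite (E ⧸ Z)
    obtain ⟨v, w, h1, h3, h4⟩ : ∃ v w : E ⧸ Z, v ≠ 1 ∧ w ≠ 1 ∧ v ≠ w := by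
      obtain ⟨x, y, z, h1, h3, h4⟩ := Fintype.two_lt_card_iff.1
        (show 2 < Fintype.card (E ⧸ Z) by rw [← Nat.card_eq_fintype_card]; exact not_le.1 h2)
      exact ⟨x⁻¹ * y, x⁻¹ * z, by simpa [inv_mul_eq_one], by simpa [inv_mul_eq_one], by simpa⟩
    obtain ⟨v, rfl⟩ := QuotientGroup.mk_surjective v
    obtain ⟨w, rfl⟩ := QuotientGroup.mk_surjective w
    have hsq : ∀ x : E, ((φ x : G) : G ⧸ Z.map φ) * (φ x : G) = 1 := fun x => by
      rw [← QuotientGroup.mk_mul, ← map_mul, hE, map_one]; rfl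
    have h5 := hN₁ (G ⧸ Z.map φ)
      (by have := factorization_card_quotient_add 2 (Z.map φ); omega) ⟨φ v, φ w, hsq v, hsq w, by
        rw [← QuotientGroup.mk_mul, ← map_mul]; exact hsq _, by
        rintro x (rfl | rfl | rfl)
        · exact key v fun h => h1 ((QuotientGroup.eq_one_iff _).2 h)
        · exact key w fun h => h3 ((QuotientGroup.eq_one_iff _).2 h)
        · rw [← QuotientGroup.mk_mul, ← map_mul]
          refine key _ fun h => h4 (QuotientGroup.eq.2 ?_)
          rwa [inv_eq_of_mul_eq_one_right (hE v)]⟩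
    obtain ⟨k, hk⟩ := IsPGroup.iff_card.1 hZp
    have h6 : k ≤ (Nat.card G).factorization 2 := (Nat.prime_two.pow_dvd_iff_le_factorization
      Nat.card_pos.ne').1 (hk ▸ card_subgroup_dvd_card _)
    rw [card_eq_card_quotient_mul_card_subgroup (Z.map φ)]
    exact (Nat.mul_le_mul h5 (hk.trans_le (Nat.pow_le_pow_right two_pos (by omega)))).trans
      (Nat.le_add_left _ _)

end Cfsg.Agent.Block
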