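import Mathlib
import Cfsg.Agent.Block.RankQuot

/-!
# Transitivity of block induction; the kernel of `indSet` on a section
-/

set_option autoImplicit false
set_option linter.unusedSectionVars false

namespace Cfsg.Agent.Block

open Cfsg Cfsg.Agent.Char MonoidAlgebra Subgroup
open scoped ComplexConjugate

variable {G : Type*} [Group G] [Finite G] {M : Ideal AlgInt} {p : ℕ}

theorem om_res_res {H : Subgroup G} {K : Subgroup H} {L : Subgroup G} (f : L ≃* K)
    (hf : ∀ l, ((f l : H) : G) = l) (ξ : K → ℂ) (z : MonoidAlgebra ℂ G) :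
    om (fun l => ξ (f l)) (res ℂ L z) = om ξ (res ℂ K (res ℂ H z)) := by
  have := Fintype.ofFinite K
  have := Fintype.ofFinite L
  rw [om_apply, om_apply, ev_apply, ev_apply, map_one]
  congr 1
  refine Fintype.sum_equiv f.toEquiv _ _ fun l => ?_
  simp only [coeff_res, MulEquiv.toEquiv_eq_coe, EquivLike.coe_coe, hf]

/-- Transitivity of block induction. -/
theorem isInducedBlock_trans_iff (hM : IsPModular p M) {H : Subgroup G} {K : Subgroup H}
    {L : Subgroup G} (f : L ≃* K) (hf : ∀ l, ((f l : H) : G) = l) {γ : Set (IrrCharacter K)}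
    {β : Set (IrrCharacter H)} (h : IsInducedBlock M K γ β) {B : Set (IrrCharacter G)} :
    IsInducedBlock M L (trSet f γ) B ↔ IsInducedBlock M H β B := by
  obtain ⟨ξ, hξ⟩ := block_nonempty hM h.1
  obtain ⟨ψ, hψ⟩ := block_nonempty hM h.2.1
  have key : ∀ z ∈ ZA ℂ G, z ∈ intAlg M G →
      val M (om (irrCongr f ξ : L → ℂ) (res ℂ L z) - om (ψ : H → ℂ) (res ℂ H z)) < 1 :=
    fun z hz hi => by
      rw [show (irrCongr f ξ : L → ℂ) = fun l => (ξ : K → ℂ) (f l) from rfl, om_res_res f hf]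
      exact val_om_res_sub_lt_of_induced hM h hξ hψ (res_mem_ZA H hz) (res_mem_intAlg H hi)
  refine ⟨fun h' => ?_, fun h' => ?_⟩
  · obtain ⟨χ, hχ⟩ := block_nonempty hM h'.2.1
    refine isInducedBlock_of_om hM h.2.1 h'.2.1 hψ hχ fun z hz hi => ?_
    have h1 := val_om_res_sub_lt_of_induced hM h' (irrCongr_mem_trSet.2 hξ) hχ hz hi
    have h2 := (val M).map_sub_lt h1 (key z hz hi)
    rwa [sub_sub_sub_cancel_left] at h2
  · obtain ⟨χ, hχ⟩ := block_nonempty hM h'.2.1
    refine isInducedBlock_of_om hM (isPBlock_trSet f h.1) h'.2.1 (irrCongr_mem_trSet.2 hξ) hχ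
      fun z hz hi => ?_
    have h2 := (val M).map_add_lt (key z hz hi)
      (val_om_res_sub_lt_of_induced hM h' hψ hχ hz hi)
    rwa [sub_add_sub_cancel] at h2

/-- Transitivity of block induction, `subgroupOf` form. -/
theorem isInducedBlock_trans_subgroupOf (hM : IsPModular p M) {H L : Subgroup G} (hLH : L ≤ H)
    {γ : Set (IrrCharacter L)} {β : Set (IrrCharacter H)}
    (h : IsInducedBlock M (L.subgroupOf H) (trSet (subgroupOfEquivOfLe hLH) γ) β)
    {B : Set (IrrCharacter G)} : IsInducedBlock M L γ B ↔ IsInducedBlock M H β B := by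
  rw [← isInducedBlock_trans_iff hM (subgroupOfEquivOfLe hLH).symm (fun _ => rfl) h,
    trSet_symm_trSet]

theorem setOf_exists_induced_eq (hM : IsPModular p M) (H : Subgroup G)
    (B : Set (IrrCharacter G)) :
    {ψ : IrrCharacter H | ∃ β : Set (IrrCharacter H), ψ ∈ β ∧ IsInducedBlock M H β B} =
      indSet M H B := by
  ext ψ
  refine ⟨fun ⟨β, hψ, h⟩ => subset_indSet hM h hψ, fun h => ⟨_, self_mem_blockOf hM ψ, h⟩⟩

/-- The centraliser in `H` of `x ∈ H`, as a subgroup of `G`. -/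
def cenInEquiv {H : Subgroup G} (x : H) :
    (H ⊓ centralizer ({(x : G)} : Set G) : Subgroup G) ≃* centralizer ({x} : Set H) where
  toFun l := ⟨⟨l, l.2.1⟩, mem_centralizer_singleton_iff.2
    (Subtype.ext (mem_centralizer_singleton_iff.1 l.2.2))⟩
  invFun c := ⟨c.1, c.1.2, mem_centralizer_singleton_iff.2
    (congrArg Subtype.val (mem_centralizer_singleton_iff.1 c.2))⟩
  left_inv _ := rfl
  right_inv _ := rfl
  map_mul' _ _ := rfl

variable [hp : Fact p.Prime]

theorem irrCongr_cenInEquiv_mem_indSet (hM : IsPModular p M) {H : Subgroup G} {x : H}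
    {B : Set (IrrCharacter G)} {ξ : IrrCharacter (centralizer ({x} : Set H))}
    {β : Set (IrrCharacter H)} (h : ξ ∈ indSet M (centralizer ({x} : Set H)) β) :
    irrCongr (cenInEquiv x) ξ ∈ indSet M (H ⊓ centralizer ({(x : G)} : Set G)) B ↔
      IsInducedBlock M H β B := by
  rw [← isInducedBlock_trans_iff hM (cenInEquiv x) (fun _ => rfl) h, trSet_blockOf]
  rfl

/-- The kernel of the characters of `H` in blocks inducing `B`, on a `p`-section. -/
theorem sum_indSet_section (hM : IsPModular p M) {H : Subgroup G} {x : H}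
    (hx : ∃ k, orderOf x = p ^ k) (B : Set (IrrCharacter G))
    {y y' : (H ⊓ centralizer ({(x : G)} : Set G) : Subgroup G)} (hy : ¬ p ∣ orderOf y)
    (hy' : ¬ p ∣ orderOf y') :
    ∑ᶠ χ ∈ indSet M H B, (χ : H → ℂ) (x * cenInEquiv x y) *
        conj ((χ : H → ℂ) (x * cenInEquiv x y')) =
      ∑ᶠ ξ ∈ indSet M (H ⊓ centralizer ({(x : G)} : Set G)) B,
        (ξ : (H ⊓ centralizer ({(x : G)} : Set G) : Subgroup G) → ℂ) y *
          conj ((ξ : (H ⊓ centralizer ({(x : G)} : Set G) : Subgroup G) → ℂ) y') := by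
  classical
  have h1 : ∀ y : (H ⊓ centralizer ({(x : G)} : Set G) : Subgroup G), ¬ p ∣ orderOf y →
      ¬ p ∣ orderOf (cenInEquiv x y) := fun y hy => by rwa [MulEquiv.orderOf_eq]
  rw [indSet, finsum_mem_filter_blocks hM (fun β => IsInducedBlock M H β B),
    Finset.sum_congr rfl fun β hβ => sum_block_section hM hx (Finset.mem_filter.1 hβ).2.1
      (h1 y hy) (h1 y' hy'),
    ← trSet_trSet_symm (cenInEquiv x) (indSet M _ B), finsum_mem_trSet]
  simp only [finsum_mem_irr_eq_sum_ite]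
  rw [Finset.sum_comm]
  refine Finset.sum_congr rfl fun ξ _ => ?_
  obtain ⟨β, hβ⟩ := inducedBlockDefined_centralizer hM hx (isPBlock_blockOf (M := M) ξ)
  have h2 : ξ ∈ trSet (cenInEquiv x).symm (indSet M _ B) ↔ IsInducedBlock M H β B :=
    irrCongr_cenInEquiv_mem_indSet hM hβ
  rw [Finset.sum_filter, Finset.sum_eq_single β]
  · have h3 : ξ ∈ indSet M (centralizer ({x} : Set H)) β := hβ
    simp only [h2, h3, if_true]
    rfl
  · intro β' _ hne
    have h3 : ξ ∉ indSet M (centralizer ({x} : Set H)) β' := fun h =>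
      hne (induced_unique hM h hβ)
    simp [h3]
  · intro h
    exact absurd (mem_blocks.2 hβ.2.1) h

theorem card_mul_card_sub_blockRank [Fintype G] (hM : IsPModular p M) {A : Set (IrrCharacter G)}
    (hA : eSet A ∈ intAlg M G) : (Nat.card G : ℂ) * (Nat.card A - blockRank p A) =
      ∑ g, if p ∣ orderOf g then ∑ᶠ χ ∈ A, (χ : G → ℂ) g * conj ((χ : G → ℂ) g) else 0 := by
  classical
  have h1 : (Nat.card G : ℂ) * Nat.card A =
      ∑ g, ∑ᶠ χ ∈ A, (χ : G → ℂ) g * conj ((χ : G → ℂ) g) := by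
    simp only [finsum_mem_irr_filter]
    rw [Finset.sum_comm, natCard_block_eq, Finset.sum_congr rfl fun χ _ => sum_mul_conj_eq _ _]
    rw [Finset.sum_congr rfl fun (χ : IrrCharacter G) _ => by rw [χ.2.inner_self]]
    simp [mul_comm]
  rw [mul_sub, h1, card_mul_blockRank hM hA, ← Finset.sum_sub_distrib]
  refine Finset.sum_congr rfl fun g _ => ?_
  split_ifs with hg
  · rw [regPart_of_dvd _ hg, sub_zero]
  · rw [regPart_of_not_dvd _ hg, sub_self]

end Cfsg.Agent.Block
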