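import Mathlib
import Cfsg.Agent.Block.RankLift
import Cfsg.Agent.Block.BrauerPair
import Cfsg.Agent.Perm.PermModule

/-! Blocks of minimal dimension: the block algebra is a transitive permutation module for `S × S`. -/

set_option autoImplicit false
set_option linter.unusedSectionVars false

namespace Cfsg.Agent.Block

open Cfsg Cfsg.Agent.Char MonoidAlgebra Module Subgroup

namespace MinDim

variable {k : Type*} [Field k] {G : Type*} [Group G] [Finite G] {p : ℕ} [Fact p.Prime] [CharP k p]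

/-- `S × S` acts on `G` by left and right multiplication -/
@[reducible] def act (S : Subgroup G) : MulAction (S × S) G where
  smul s g := s.1 * g * (s.2 : G)⁻¹
  one_smul g := by change (1 : G) * g * 1⁻¹ = g; simp
  mul_smul s t g := by
    change (s.1 : G) * t.1 * g * ((s.2 : G) * t.2)⁻¹ = s.1 * (t.1 * g * (t.2 : G)⁻¹) * (s.2 : G)⁻¹
    group

/-- the double coset `S c S` -/
def dc (S : Subgroup G) (c : G) : Set G := {y | ∃ s ∈ S, ∃ t ∈ S, y = s * c * t}

theorem ncard_dc_mul (S : Subgroup G) (c : G) :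
    (dc S c).ncard * Nat.card (S ⊓ S.map (Alg.cm c) : Subgroup G) = Nat.card S * Nat.card S := by
  let := act S
  have h1 : dc S c = MulAction.orbit (S × S) c := by
    ext y
    constructor
    · rintro ⟨s, hs, t, ht, rfl⟩
      exact ⟨(⟨s, hs⟩, ⟨t⁻¹, inv_mem ht⟩), by change s * c * t⁻¹⁻¹ = _; rw [inv_inv]⟩
    · rintro ⟨s, rfl⟩
      exact ⟨_, s.1.2, _, inv_mem s.2.2, rfl⟩
  have h2 : Nat.card (S ⊓ S.map (Alg.cm c) : Subgroup G) =
      Nat.card (MulAction.stabilizer (S × S) c) := by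
    refine Nat.card_eq_of_bijective (fun u => ⟨(⟨u.1, u.2.1⟩, ⟨_, Alg.mem_map_cm.1 u.2.2⟩), by
      change u.1 * c * (c⁻¹ * u.1 * c)⁻¹ = c; group⟩) ⟨fun u v e => ?_, fun s => ?_⟩
    · exact Subtype.ext (congrArg (fun s : MulAction.stabilizer (S × S) c => (s.1.1 : G)) e)
    · have h : (s.1.1 : G) * c * (s.1.2 : G)⁻¹ = c := s.2
      have h' : c⁻¹ * s.1.1 * c = s.1.2 := by
        rw [mul_inv_eq_iff_eq_mul] at h
        rw [mul_assoc, h, inv_mul_cancel_left]
      exact ⟨⟨s.1.1, s.1.1.2, Alg.mem_map_cm.2 (h' ▸ s.1.2.2)⟩,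
        Subtype.ext (Prod.ext rfl (Subtype.ext h'))⟩
  rw [h1, h2, ← MulAction.index_stabilizer, index_mul_card, Nat.card_prod]

theorem mul_mem_dc_iff {S : Subgroup G} {c s t y : G} (hs : s ∈ S) (ht : t ∈ S) :
    s * y * t ∈ dc S c ↔ y ∈ dc S c := by
  constructor
  · rintro ⟨a, ha, b, hb, e⟩
    exact ⟨s⁻¹ * a, mul_mem (inv_mem hs) ha, b * t⁻¹, mul_mem hb (inv_mem ht), by
      rw [show y = s⁻¹ * (s * y * t) * t⁻¹ by group, e]; group⟩
  · rintro ⟨a, ha, b, hb, rfl⟩
    exact ⟨s * a, mul_mem hs ha, b * t, mul_mem hb ht, by group⟩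

theorem self_mem_dc (S : Subgroup G) (c : G) : c ∈ dc S c := ⟨1, one_mem _, 1, one_mem _, by simp⟩

theorem dc_eq {S : Subgroup G} {c y : G} (h : y ∈ dc S c) : dc S y = dc S c := by
  obtain ⟨s, hs, t, ht, rfl⟩ := h
  ext z
  constructor
  · rintro ⟨a, ha, b, hb, rfl⟩
    rw [mul_mem_dc_iff ha hb, mul_mem_dc_iff hs ht]
    exact self_mem_dc S c
  · rintro ⟨a, ha, b, hb, rfl⟩
    exact ⟨a * s⁻¹, mul_mem ha (inv_mem hs), t⁻¹ * b, mul_mem (inv_mem ht) hb, by group⟩

/-- invariance under both multiplications by `S` -/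
def Bi (S : Subgroup G) (w : MonoidAlgebra k G) : Prop :=
  ∀ s ∈ S, ∀ t ∈ S, ∀ g, w.coeff (s * g * t) = w.coeff g

theorem coeff_single_mul_mul (s t : G) (w : MonoidAlgebra k G) (g : G) :
    (single s (1 : k) * w * single t 1).coeff g = w.coeff (s⁻¹ * g * t⁻¹) := by
  rw [coeff_mul_single_apply, coeff_single_mul_apply, one_mul, mul_one, mul_assoc]

theorem exists_bi {S : Subgroup G} (hS : IsPGroup p S) {W : Submodule k (MonoidAlgebra k G)}
    (hW : ∀ s ∈ S, ∀ t ∈ S, ∀ w ∈ W, single s (1 : k) * w * single t 1 ∈ W) (h0 : W ≠ ⊥) :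
    ∃ w ∈ W, w ≠ 0 ∧ Bi S w := by
  let ρ : Representation k (S × S) (MonoidAlgebra k G) :=
    { toFun := fun s => LinearMap.mulLeftRight k (single (s.1 : G) 1, single (s.2 : G)⁻¹ 1)
      map_one' := LinearMap.ext fun a => by simp [← MonoidAlgebra.one_def]
      map_mul' := fun s t => LinearMap.ext fun a => by
        simp only [LinearMap.mulLeftRight_apply, Module.End.mul_apply, Prod.fst_mul, Prod.snd_mul,
          coe_mul, mul_inv_rev]
        rw [← mul_one (1 : k), ← single_mul_single, ← single_mul_single]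
        simp only [mul_assoc, mul_one] }
  have hP : IsPGroup p (S × S) := by
    obtain ⟨n, hn⟩ := hS.exists_card_eq
    exact IsPGroup.of_card (n := n + n) (by rw [Nat.card_prod, hn, pow_add])
  obtain ⟨w, hw, hw0, h⟩ := Perm.exists_fixed_vector_of_isPGroup hP ρ W
    (fun s w hw => hW _ s.1.2 _ (inv_mem s.2.2) w hw) h0
  refine ⟨w, hw, hw0, fun s hs t ht g => ?_⟩
  have := congrArg (·.coeff g) (h (⟨s⁻¹, inv_mem hs⟩, ⟨t, ht⟩))
  simpa [ρ, coeff_single_mul_mul, mul_assoc] using this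

open Classical in
/-- the sum of the elements of a double coset -/
noncomputable def hat (k : Type*) [Field k] (S : Subgroup G) (c : G) : MonoidAlgebra k G :=
  ofFun fun g => if g ∈ dc S c then 1 else 0

theorem Bi.coeff_of_mem {S : Subgroup G} {w : MonoidAlgebra k G} (hw : Bi S w) {c g : G}
    (hg : g ∈ dc S c) : w.coeff g = w.coeff c := by
  obtain ⟨s, hs, t, ht, rfl⟩ := hg
  exact hw s hs t ht c

theorem exists_hat {S : Subgroup G} (e : MonoidAlgebra k G) (n : ℕ) : ∀ w : MonoidAlgebra k G,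
    w.coeff.support.card ≤ n → Bi S w → e * w ≠ 0 → ∃ c, w.coeff c ≠ 0 ∧ e * hat k S c ≠ 0 := by
  classical
  induction n with
  | zero =>
    intro w hw _ h0
    rw [Nat.le_zero, Finset.card_eq_zero, Finsupp.support_eq_empty] at hw
    exact absurd (by rw [show w = 0 from ga_ext fun g => by simp [hw], mul_zero]) h0
  | succ n ih =>
    intro w hw hb h0
    obtain ⟨c, hc⟩ := Alg.exists_coeff_ne_zero (right_ne_zero_of_mul h0)
    by_cases h1 : e * hat k S c = 0
    swap
    · exact ⟨c, hc, h1⟩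
    have h2 : ∀ g, (w - w.coeff c • hat k S c).coeff g = if g ∈ dc S c then 0 else w.coeff g := by
      intro g
      simp only [hat, coeff_sub, coeff_smul, Finsupp.sub_apply, Finsupp.smul_apply, coeff_ofFun]
      split_ifs with h
      · simp [hb.coeff_of_mem h]
      · simp
    obtain ⟨d, hd, hd'⟩ := ih (w - w.coeff c • hat k S c) (by
      refine Nat.le_of_lt_succ ((Finset.card_lt_card ⟨fun g hg => ?_, fun h => ?_⟩).trans_le hw)
      · rw [Finsupp.mem_support_iff] at hg ⊢
        rw [h2] at hg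
        split_ifs at hg
        · exact absurd rfl hg
        · exact hg
      · have := Finsupp.mem_support_iff.1 (h (Finsupp.mem_support_iff.2 hc))
        rw [h2, if_pos (self_mem_dc S c)] at this
        exact this rfl)
      (fun s hs t ht g => by rw [h2, h2, hb s hs t ht]; simp only [mul_mem_dc_iff hs ht])
      (by rwa [mul_sub, mul_smul_comm, h1, smul_zero, sub_zero])
    refine ⟨d, ?_, hd'⟩
    rw [h2] at hd
    split_ifs at hd
    · exact absurd rfl hd
    · exact hd

/-- elements supported on a double coset -/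
def sup (k : Type*) [Field k] (Y : Set G) : Submodule k (MonoidAlgebra k G) where
  carrier := {m | ∀ g, g ∉ Y → m.coeff g = 0}
  add_mem' := fun ha hb g hg => by simp [ha g hg, hb g hg]
  zero_mem' := fun _ _ => rfl
  smul_mem' := fun c m hm g hg => by simp [hm g hg]

theorem ncard_le_finrank (Y : Set G) : Y.ncard ≤ finrank k (sup k Y) := by
  classical
  have := Fintype.ofFinite Y
  have h : LinearIndependent k fun y : Y => (⟨single (y : G) 1, fun g hg => by
      rw [coeff_single, Finsupp.single_apply, if_neg fun e : (y : G) = g => hg (e ▸ y.2)]⟩ : sup k Y) :=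
    LinearIndependent.of_comp (sup k Y).subtype
      ((MonoidAlgebra.basis G k).linearIndependent.comp _ Subtype.val_injective)
  rw [← Nat.card_coe_set_eq, Nat.card_eq_fintype_card]
  exact h.fintype_card_le_finrank

theorem exists_conj {e : MonoidAlgebra k G} (he : e ∈ Alg.Z k (⊤ : Subgroup G)) (hee : e * e = e)
    {S D : Subgroup G} (hS : IsPGroup p S) (hDS : D ≤ S) (hD : Alg.br D e ≠ 0)
    (hmax : ∀ R : Subgroup G, IsPGroup p R → Alg.br R e ≠ 0 → Nat.card R ≤ Nat.card D)
    (hdim : finrank k (LinearMap.range (LinearMap.mulLeft k e)) * Nat.card D ≤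
      Nat.card S * Nat.card S) {Q : Subgroup G} (hQ : Q ≤ D) {x : G}
    (hx : x ∈ normalizer (Q : Set G)) : ∃ s ∈ S, ∀ u ∈ Q, x⁻¹ * u * x = s⁻¹ * u * s := by
  have hc : ∀ a, e * a = a * e := fun a => ((Alg.supp_top a).commute he.2).symm
  have hcc : ∀ s t : G, ∀ w, e * (single s (1 : k) * w * single t 1) =
      single s (1 : k) * (e * w) * single t 1 := fun s t w => by
    rw [← mul_assoc, ← mul_assoc, hc, mul_assoc _ e]
  obtain ⟨_, ⟨w, rfl⟩, hw0, hw⟩ := exists_bi hS (W := LinearMap.range (LinearMap.mulLeft k e))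
    (by rintro s - t - _ ⟨w, rfl⟩; exact ⟨_, hcc s t w⟩) fun h => hD (by
      have : e * 1 ∈ LinearMap.range (LinearMap.mulLeft k e) := ⟨1, rfl⟩
      rw [h, Submodule.mem_bot, mul_one] at this
      rw [this, map_zero])
  rw [LinearMap.mulLeft_apply] at hw0 hw
  obtain ⟨c, hc1, hc2⟩ := exists_hat e _ _ le_rfl hw (by rwa [← mul_assoc, hee])
  have h1 : Nat.card (S ⊓ S.map (Alg.cm c) : Subgroup G) ≤ Nat.card D := by
    refine hmax _ (hS.to_le inf_le_left) fun h0 => hc1 ?_
    have h2 : Alg.Inv (S ⊓ S.map (Alg.cm c)) (e * w * single c⁻¹ 1) := fun u hu g => by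
      rw [coeff_mul_single_apply, coeff_mul_single_apply, inv_inv,
        ← hw u hu.1 _ (inv_mem (Alg.mem_map_cm.1 hu.2)) (g * c)]
      congr 2
      group
    have h3 := congrArg (·.coeff 1) (Alg.br_mul (hS.to_le inf_le_left) (he.2.mono le_top) h2)
    simpa [h0, Alg.coeff_br_of_mem _ (one_mem _), ← mul_assoc, hee] using h3
  have hst : ∀ s ∈ S, ∀ t ∈ S, ∀ m ∈ sup k (dc S c),
      single s (1 : k) * m * single t 1 ∈ sup k (dc S c) := fun s hs t ht m hm g hg => by
    rw [coeff_single_mul_mul]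
    exact hm _ (by rwa [mul_mem_dc_iff (inv_mem hs) (inv_mem ht)])
  have hinj : ∀ m ∈ sup k (dc S c), e * m = 0 → m = 0 := by
    intro m hm h0
    by_contra hm0
    obtain ⟨v, hv, hv0, hvb⟩ := exists_bi hS
      (W := sup k (dc S c) ⊓ LinearMap.ker (LinearMap.mulLeft k e))
      (fun s hs t ht v hv => ⟨hst s hs t ht v hv.1, by
        have : e * v = 0 := hv.2
        change e * _ = 0
        rw [hcc, this, mul_zero, zero_mul]⟩)
      ((Submodule.ne_bot_iff _).2 ⟨m, ⟨hm, h0⟩, hm0⟩)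
    have h2 : v = v.coeff c • hat k S c := ga_ext fun g => by
      simp only [hat, coeff_smul, Finsupp.smul_apply, coeff_ofFun]
      split_ifs with h
      · simp [hvb.coeff_of_mem h]
      · simp [hv.1 g h]
    have h3 : e * v = 0 := hv.2
    rw [h2, mul_smul_comm, smul_eq_zero] at h3
    exact hv0 (by rw [h2, h3.resolve_right hc2, zero_smul])
  have hpos : 0 < Nat.card D := Nat.card_pos
  have h4 : Nat.card S * Nat.card S ≤ (dc S c).ncard * Nat.card D := by
    rw [← ncard_dc_mul S c]; exact Nat.mul_le_mul_left _ h1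
  have hsurj : LinearMap.range ((LinearMap.mulLeft k e).domRestrict (sup k (dc S c))) =
      LinearMap.range (LinearMap.mulLeft k e) := by
    refine Submodule.eq_of_le_of_finrank_le (by rintro _ ⟨m, rfl⟩; exact ⟨m, rfl⟩) ?_
    rw [LinearMap.finrank_range_of_inj ((injective_iff_map_eq_zero _).2 fun m hm =>
      Subtype.ext (hinj m m.2 hm))]
    exact (Nat.le_of_mul_le_mul_right (hdim.trans h4) hpos).trans (ncard_le_finrank _)
  have key : ∀ {R : Subgroup G}, R ≤ D → ∀ x ∈ normalizer (R : Set G),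
      ∃ g ∈ centralizer (R : Set G), g * x ∈ dc S c := by
    intro R hR x hx
    obtain ⟨m, hm⟩ : e * single x 1 ∈
      LinearMap.range ((LinearMap.mulLeft k e).domRestrict (sup k (dc S c))) := hsurj ▸ ⟨_, rfl⟩
    obtain ⟨m, hm'⟩ := m
    change e * m = _ at hm
    have h2 : Alg.Inv R (m * single x⁻¹ 1) := fun u hu g => by
      have hu' : x⁻¹ * u * x ∈ R := by simpa using (mem_normalizer_iff.1 (inv_mem hx) u).1 hu
      have h3 := hinj _ (sub_mem (hst _ (inv_mem (hDS (hR hu))) _ (hDS (hR hu')) m hm') hm') (by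
        rw [mul_sub, hcc, hm, ← mul_assoc, ← hc, mul_assoc, mul_assoc, single_mul_single,
          single_mul_single, sub_eq_zero]
        congr 2
        · group
        · simp)
      rw [coeff_mul_single_apply, coeff_mul_single_apply, inv_inv]
      conv_rhs => rw [← sub_eq_zero.1 h3, coeff_single_mul_mul]
      congr 2
      group
    have h3 := Alg.br_mul (hS.to_le (hR.trans hDS)) (he.2.mono le_top) h2
    rw [← mul_assoc, hm, mul_assoc, single_mul_single, mul_inv_cancel, mul_one,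
      ← MonoidAlgebra.one_def, mul_one] at h3
    obtain ⟨g, hg, h5⟩ := Alg.br_ne_zero_iff.1
      (right_ne_zero_of_mul (h3 ▸ Alg.br_ne_zero_of_le hR hD))
    refine ⟨g, hg, by_contra fun h6 => h5 ?_⟩
    rw [coeff_mul_single_apply, inv_inv, hm' _ h6, zero_mul]
  obtain ⟨y, hy, hyc⟩ := key le_rfl 1 (one_mem _)
  rw [mul_one] at hyc
  have hX : D = S ⊓ S.map (Alg.cm y) := by
    refine eq_of_le_of_card_ge (le_inf hDS fun u hu => Alg.mem_map_cm.2 ?_) ?_
    · rw [mul_assoc, mem_centralizer_iff.1 hy u hu, inv_mul_cancel_left]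
      exact hDS hu
    · rw [← ncard_dc_mul S y, dc_eq hyc] at h4
      exact Nat.le_of_mul_le_mul_left h4 ((Set.ncard_pos (Set.toFinite _)).2 ⟨c, self_mem_dc S c⟩)
  obtain ⟨g, hg, hgx⟩ := key hQ x hx
  rw [← dc_eq hyc] at hgx
  obtain ⟨s, hs, t, ht, h5⟩ := hgx
  refine ⟨s * t, mul_mem hs ht, fun u hu => ?_⟩
  have hu' : x⁻¹ * u * x ∈ Q := by simpa using (mem_normalizer_iff.1 (inv_mem hx) u).1 hu
  have h6 : y⁻¹ * (s⁻¹ * u * s) * y = t * (x⁻¹ * u * x) * t⁻¹ := by
    calc y⁻¹ * (s⁻¹ * u * s) * y = t * ((s * y * t)⁻¹ * u * (s * y * t)) * t⁻¹ := by group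
      _ = t * (x⁻¹ * (g⁻¹ * (u * g)) * x) * t⁻¹ := by rw [← h5]; group
      _ = _ := by rw [mem_centralizer_iff.1 hg u hu, inv_mul_cancel_left]
  have h7 : s⁻¹ * u * s ∈ D := hX ▸ mem_inf.2 ⟨S.mul_mem (S.mul_mem (S.inv_mem hs) (hDS (hQ hu))) hs,
    Alg.mem_map_cm.2 (h6 ▸ S.mul_mem (S.mul_mem ht (hDS (hQ hu'))) (S.inv_mem ht))⟩
  rw [mul_assoc, mem_centralizer_iff.1 hy _ h7, inv_mul_cancel_left] at h6
  calc x⁻¹ * u * x = t⁻¹ * (t * (x⁻¹ * u * x) * t⁻¹) * t := by group
    _ = _ := by rw [← h6]; group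

end MinDim

variable {G : Type*} [Group G] [Finite G] {M : Ideal AlgInt}

theorem finrank_range_mulLeft_eSet {B : Set (IrrCharacter G)} (hB : eSet B ∈ intAlg M G) :
    finrank (resField M) (LinearMap.range (LinearMap.mulLeft (resField M) (redAlg M (eSet B)))) =
      ∑ᶠ χ ∈ B, charDegree (χ : G → ℂ) ^ 2 := by
  classical
  have hT : ∀ a, LinearMap.mulLeftRight ℂ (eSet B, 1) (LinearMap.mulLeftRight ℂ (eSet B, 1) a) =
      LinearMap.mulLeftRight ℂ (eSet B, 1) a := fun a => by
    simp [← mul_assoc, eSet_mul_self]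
  rw [finrank_range_eq_of_idem hT (fun a ha => by simpa using mul_mem hB ha) fun a ha => by
    simpa using redAlg_mul hB ha]
  apply Nat.cast_injective (R := ℂ)
  rw [← LinearMap.IsProj.trace (f := LinearMap.mulLeftRight ℂ (eSet B, 1))
    (p := LinearMap.range (LinearMap.mulLeftRight ℂ (eSet B, 1)))
    ⟨fun a => ⟨a, rfl⟩, by rintro _ ⟨a, rfl⟩; exact hT a⟩, trace_mulLeftRight,
    finsum_mem_eq_finite_toFinset_sum _ (Set.toFinite B), ← Finset.sum_subset
      (Finset.subset_univ (Set.toFinite B).toFinset) fun χ _ hχ => by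
        rw [← mul_one (eSet B), ev_eSet_mul_of_notMem (by simpa using hχ), zero_mul]]
  push_cast
  refine Finset.sum_congr rfl fun χ hχ => ?_
  rw [← mul_one (eSet B), ev_eSet_mul_of_mem (by simpa using hχ), coe_charDegree_irr, ev_one, sq]

end Cfsg.Agent.Block
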