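import Mathlib
import Cfsg.Agent.Block.Induce
import Cfsg.Agent.Char.Brauer
import Cfsg.Agent.Grp.Fitting

/-!
# The sum of the `p`-elements; Külshammer's formula for the principal block idempotent
-/

set_option autoImplicit false

namespace Cfsg.Agent.Block

open Cfsg Cfsg.Agent.Char MonoidAlgebra Subgroup
open scoped ComplexConjugate

variable {M : Ideal AlgInt} {p : ℕ} {G : Type*} [Group G] [Finite G] [hp : Fact p.Prime]

/-- Frobenius: the sum of a generalized character over the `p`-elements is divisible by the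
`p`-part of the group order. -/
theorem val_ev_pElements_le (hM : IsPModular p M) {χ : G → ℂ} (hχ : IsGeneralizedCharacter G χ) :
    val M ((Nat.card G : ℂ)⁻¹ * ev χ (setSum ℂ {x : G | ∃ k, orderOf x = p ^ k})) ≤ 1 := by
  classical
  have := Fintype.ofFinite G
  let θ : G → ℂ := fun x => if ∃ k, orderOf x = p ^ k then 1 else 0
  have hθ : IsClassFunction G θ := fun a b => by simp only [θ, orderOf_conj_eq]
  have h := classInner_mem_of_elementary (valRing M).toSubring.toAddSubgroup hθ
    (fun E _ q hq hE lam => ?_) hχ.conj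
  · have e : classInner θ (fun g => conj (χ g)) =
        (Nat.card G : ℂ)⁻¹ * ev χ (setSum ℂ {x : G | ∃ k, orderOf x = p ^ k}) := by
      rw [classInner_def, ev_apply]
      simp [θ, coeff_setSum]
    rw [← e]
    exact (mem_valRing_iff _).1 h
  have := isNilpotent_of_isElementary hq hE
  obtain ⟨n, hn⟩ := (isCharacter_one (G := pCore p E)).exists_nat_inner
    ((isIrrCharacter_linear lam).isCharacter.restrict (pCore p E))
  have hmem : ∀ x : E, x ∈ pCore p E ↔ ∃ k, orderOf (x : G) = p ^ k := fun x => by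
    rw [orderOf_coe]
    exact ⟨orderOf_eq_pow_of_mem (Grp.pCore_isPGroup p E), fun h =>
      Grp.le_pCore_of_isNilpotent (orderOf_eq_pow_iff_isPGroup.1 h) (mem_zpowers x)⟩
  have hi : (((pCore p E).index : ℕ) : ℂ) ≠ 0 := Nat.cast_ne_zero.2 index_ne_zero_of_finite
  have e : classInner (fun e : E => θ e) (fun e => (lam e : ℂ)) = ((pCore p E).index : ℂ)⁻¹ * n := by
    rw [← hn, classInner_def, classInner_def, ← (pCore p E).card_mul_index,
      ← Finset.sum_subtype (Finset.univ.filter (· ∈ pCore p E)) (by simp)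
        (fun x => 1 * conj (lam x : ℂ)), Finset.sum_filter]
    have := card_ne_zero (pCore p E)
    simp only [θ, hmem, ite_mul, zero_mul]
    push_cast
    field_simp
  change _ ∈ valRing M
  rw [e, mem_valRing_iff]
  exact val_mul_le_one (val_inv_of_eq_one ((val_natCast_eq_one_iff hM _).2
    (Grp.not_dvd_index_pCore_of_isNilpotent p))).le (val_natCast_le_one n)

omit hp in
theorem regElt_one_eq_setSum :
    regElt p (fun _ : G => (1 : ℂ)) = setSum ℂ {y : G | ¬ p ∣ orderOf y} := by
  classical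
  refine ga_ext fun x => ?_
  rw [coeff_regElt, coeff_setSum]
  by_cases h : p ∣ orderOf x <;> simp [h]

omit hp in
theorem om_one_setSum (S : Set G) : om (fun _ : G => (1 : ℂ)) (setSum ℂ S) = Nat.card S := by
  classical
  have := Fintype.ofFinite G
  rw [om_apply, ev_apply, div_one, Nat.card_eq_fintype_card, Fintype.card_subtype]
  simp [coeff_setSum]

omit hp in
theorem coeff_setSum_mul_setSum (S T : Set G) (g : G) :
    (setSum ℂ S * setSum ℂ T).coeff g =
      Nat.card {xy : G × G // xy.1 ∈ S ∧ xy.2 ∈ T ∧ xy.1 * xy.2 = g} := by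
  classical
  have := Fintype.ofFinite G
  have e : {xy : G × G // xy.1 ∈ S ∧ xy.2 ∈ T ∧ xy.1 * xy.2 = g} ≃ {x : G // x ∈ S ∧ x⁻¹ * g ∈ T} :=
    { toFun := fun xy => ⟨xy.1.1, xy.2.1, (eq_inv_mul_iff_mul_eq.2 xy.2.2.2) ▸ xy.2.2.1⟩
      invFun := fun x => ⟨(x.1, x.1⁻¹ * g), x.2.1, x.2.2, by simp⟩
      left_inv := fun xy => Subtype.ext (Prod.ext rfl (eq_inv_mul_iff_mul_eq.2 xy.2.2.2).symm)
      right_inv := fun x => rfl }
  rw [Nat.card_congr e, coeff_mul_left, Nat.card_eq_fintype_card, Fintype.card_subtype,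
    Finset.card_filter]
  push_cast
  refine Finset.sum_congr rfl fun x _ => ?_
  simp only [coeff_setSum]
  by_cases h1 : x ∈ S <;> by_cases h2 : x⁻¹ * g ∈ T <;> simp [h1, h2]

/-- On `p`-regular elements the block idempotent and its product with the sum of the
`p`-elements have the same coefficients. -/
theorem blockCoeff_eq_sum_pElements (hM : IsPModular p M) {A : Set (IrrCharacter G)}
    (hA : ∀ g, val M (blockCoeff A g) ≤ 1) {g : G} (hg : ¬ p ∣ orderOf g) :
    blockCoeff A g = ∑ᶠ χ ∈ A, (Nat.card G : ℂ)⁻¹ *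
      ev (χ : G → ℂ) (setSum ℂ {x : G | ∃ k, orderOf x = p ^ k}) * conj ((χ : G → ℂ) g) := by
  classical
  have := Fintype.ofFinite G
  have h : ∀ x : G, (setSum ℂ {x : G | ∃ k, orderOf x = p ^ k}).coeff x *
      ∑ᶠ χ ∈ A, (χ : G → ℂ) x * conj ((χ : G → ℂ) g) =
      if x = 1 then ∑ᶠ χ ∈ A, (χ : G → ℂ) 1 * conj ((χ : G → ℂ) g) else 0 := by
    intro x
    split_ifs with hx
    · rw [hx, coeff_setSum_of_mem (S := {x : G | ∃ k, orderOf x = p ^ k}) ⟨0, by simp⟩, one_mul]
    · by_cases hx' : ∃ k, orderOf x = p ^ k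
      · rw [sum_mul_conj_eq_zero_of_singular_regular hM hA
          (by by_contra h; exact hx (eq_one_of_orderOf_pow_of_not_dvd hx' h)) hg, mul_zero]
      · rw [coeff_setSum_of_notMem (S := {x : G | ∃ k, orderOf x = p ^ k}) hx', zero_mul]
  have h2 := Finset.sum_congr rfl fun x (_ : x ∈ Finset.univ) => h x
  rw [Finset.sum_ite_eq' Finset.univ (1 : G), if_pos (Finset.mem_univ _)] at h2
  rw [blockCoeff, ← h2]
  simp only [finsum_mem_irr_eq_sum, ev_apply, Finset.mul_sum, Finset.sum_mul]
  rw [Finset.sum_comm]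
  exact Finset.sum_congr rfl fun _ _ => Finset.sum_congr rfl fun _ _ => by ring

/-- **Külshammer's formula.** -/
theorem val_coeff_pElements_mul_sub_lt (hM : IsPModular p M) {g : G} (hg : ¬ p ∣ orderOf g) :
    val M ((setSum ℂ {x : G | ∃ k, orderOf x = p ^ k} * setSum ℂ {y : G | ¬ p ∣ orderOf y}).coeff g -
      Nat.card {y : G // ¬ p ∣ orderOf y} * blockCoeff (principalBlock M G) g) < 1 := by
  classical
  have hB : IsPBlock M (principalBlock M G) := isPBlock_blockOf (irrOne G)
  have h1 : irrOne G ∈ principalBlock M G := self_mem_blockOf hM (irrOne G)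
  have hU : setSum ℂ {x : G | ∃ k, orderOf x = p ^ k} ∈ ZA ℂ G :=
    setSum_mem_ZA fun g h => by simp only [Set.mem_ofPred_eq, orderOf_conj_eq]
  have hY : setSum ℂ {y : G | ¬ p ∣ orderOf y} ∈ ZA ℂ G :=
    setSum_mem_ZA fun g h => by simp only [Set.mem_ofPred_eq, orderOf_conj_eq]
  rw [ZA_coeff_eq_sum_om (mul_mem hU hY), blockCoeff_eq_sum_pElements hM
    (val_blockCoeff_le_of_block hM hB) hg, finsum_mem_irr_eq_sum_ite, Finset.mul_sum,
    Finset.mul_sum, ← Finset.sum_sub_distrib]
  refine val_sum_lt_one fun χ _ => ?_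
  rw [om_central_mul χ.2 hU]
  have h2 := val_mul_le_one (val_ev_pElements_le hM χ.2.isGen) (val_conj_char_le_one χ.2.isCharacter g)
  rw [ev_eq_om_mul χ.2.one_ne_zero] at h2 ⊢
  split_ifs with hχ
  · have h3 := val_om_sub_om_lt_of_mem hM hB hχ h1 hY (setSum_mem_intAlg _)
    have h4 : om (irrOne G : G → ℂ) (setSum ℂ {y : G | ¬ p ∣ orderOf y}) =
        Nat.card {y : G // ¬ p ∣ orderOf y} := om_one_setSum _
    rw [h4] at h3
    convert val_mul_lt_one_right h2 h3 using 2
    ring
  · have h3 := om_regElt_eq_zero hM (isPBlock_blockOf χ) (self_mem_blockOf hM χ) (ψ := irrOne G)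
      (fun h => hχ (sameBlock_symm hM h))
    have h4 : regElt p (irrOne G : G → ℂ) = setSum ℂ {y : G | ¬ p ∣ orderOf y} :=
      regElt_one_eq_setSum
    rw [h4] at h3
    rw [h3]
    simp

end Cfsg.Agent.Block
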