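import Mathlib
import Cfsg.Agent.Block.CycPerf
import Cfsg.Agent.Block.DefectNum
import Cfsg.Agent.Block.StarAct
import Cfsg.Agent.Char.Linear

/-! Groups with a self-centralizing normal `p`-subgroup. -/

set_option autoImplicit false
set_option linter.unusedSectionVars false
set_option linter.style.haveILetI false

namespace Cfsg.Agent.Block

open Cfsg Cfsg.Agent.Char MonoidAlgebra Subgroup
open scoped ComplexConjugate

variable {G : Type*} [Group G] [Finite G] {M : Ideal AlgInt} {p : ℕ} [hp : Fact p.Prime]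

theorem block_eq_univ_of_centralizer_le (hM : IsPModular p M) (Q : Subgroup G) [Q.Normal]
    (hQ : IsPGroup p Q) (hC : centralizer (Q : Set G) ≤ Q) {B : Set (IrrCharacter G)}
    (hB : IsPBlock M B) : B = Set.univ := by
  classical
  obtain ⟨χ, hχ⟩ := block_nonempty hM hB
  refine Set.eq_univ_of_forall fun ψ => by_contra fun hψ => ?_
  have hz : eSet B - algebraMap ℂ _ (blockCoeff B 1) ∈ ZA ℂ G :=
    sub_mem (eSet_mem_ZA B) (Subalgebra.algebraMap_mem _ _)
  have hs : IsSmall M (eSet B - algebraMap ℂ _ (blockCoeff B 1)) := by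
    intro g
    rw [MonoidAlgebra.coeff_sub, Finsupp.sub_apply, coeff_eSet, MonoidAlgebra.coe_algebraMap]
    by_cases hg : g = 1
    · subst hg; simp
    have h1 : (MonoidAlgebra.single (1 : G) (algebraMap ℂ ℂ (blockCoeff B 1))).coeff g = 0 := by
      simp [Ne.symm hg]
    rw [Function.comp_apply, h1, sub_zero]
    by_contra hv
    have h2 := not_dvd_orderOf_of_val_blockCoeff hM (eSet_mem_intAlg hM hB) hv
    by_cases hc : g ∈ centralizer (Q : Set G)
    · exact hg (eq_one_of_orderOf_pow_of_not_dvd (orderOf_eq_pow_of_mem hQ (hC hc)) h2)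
    · exact hv (val_blockCoeff_lt_one_of_normal hM Q hQ (eSet_mem_intAlg hM hB) hc)
  have h1 := val_om_lt_one χ.2 hz hs
  have h2 := val_om_lt_one ψ.2 hz hs
  rw [map_sub, om_eSet_of_mem hχ, om_algebraMap χ.2.one_ne_zero] at h1
  rw [map_sub, om_eSet_of_notMem hψ, om_algebraMap ψ.2.one_ne_zero] at h2
  have h3 := val_sub_lt_one h1 h2
  simp at h3

theorem block_eq_univ_of_isPGroup (hM : IsPModular p M) (hG : IsPGroup p G)
    {B : Set (IrrCharacter G)} (hB : IsPBlock M B) : B = Set.univ :=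
  block_eq_univ_of_centralizer_le hM ⊤ (hG.to_subgroup ⊤) le_top hB

omit hp in
theorem gbar_univ : gbar M (Set.univ : Set (IrrCharacter G)) = 1 := by
  rw [gbar, eSet_univ, redAlg_one]

omit hp in
theorem sbar_univ (C : Subgroup G) : sbar M C (Set.univ : Set (IrrCharacter C)) = 1 := by
  rw [sbar, bar, eSet_univ, redAlg_one, map_one]

theorem eq_one_of_isPrim_of_isPGroup (hM : IsPModular p M) {T : Subgroup G} (hT : IsPGroup p T)
    {f : MonoidAlgebra (resField M) G} (hf : Alg.IsPrim (Alg.Z (resField M) T) f) : f = 1 := by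
  obtain ⟨b, hb, rfl⟩ := exists_block_of_isPrim_subtype hM hf
  rw [block_eq_univ_of_isPGroup hM hT hb]
  exact sbar_univ T

theorem isPrim_one_of_isPGroup (hM : IsPModular p M) {T : Subgroup G} (hT : IsPGroup p T) :
    Alg.IsPrim (Alg.Z (resField M) T) (1 : MonoidAlgebra (resField M) G) := by
  have h := isPrim_bar_subtype hM (isPBlock_principalBlock M T)
  rwa [eq_one_of_isPrim_of_isPGroup hM hT h] at h

theorem isPBlock_univ_of_centralizer_le (hM : IsPModular p M) (Q : Subgroup G) [Q.Normal]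
    (hQ : IsPGroup p Q) (hC : centralizer (Q : Set G) ≤ Q) :
    IsPBlock M (Set.univ : Set (IrrCharacter G)) :=
  block_eq_univ_of_centralizer_le hM Q hQ hC (isPBlock_principalBlock M G) ▸
    isPBlock_principalBlock M G

theorem maxBP_univ (hM : IsPModular p M) (Q : Sylow p G) [(Q : Subgroup G).Normal]
    (hC : centralizer ((Q : Subgroup G) : Set G) ≤ Q) :
    Alg.MaxBP p ⊤ (gbar M Set.univ) (Q : Subgroup G) (1 : MonoidAlgebra (resField M) G) := by
  have := charP_resField hM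
  refine ⟨Alg.of_of_aug (isPrim_redAlg_eSet hM
    (isPBlock_univ_of_centralizer_le hM Q Q.isPGroup' hC)) ?_ ⟨le_top, Q.isPGroup',
      isPrim_one_of_isPGroup hM (Q.isPGroup'.to_le (inf_le_right.trans hC))⟩ (map_one _),
    fun R g hR => Q.is_maximal' hR.right.pgroup hR.le⟩
  rw [gbar_univ, map_one]

/-- The structure theorem for a group with a cyclic self-centralizing normal Sylow subgroup. -/
theorem exists_cyc_selfCent (hM : IsPModular p M) (Q : Sylow p G) [(Q : Subgroup G).Normal]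
    (hC : centralizer ((Q : Subgroup G) : Set G) ≤ Q) (h1 : (Q : Subgroup G) ≠ ⊥) {q : ℕ}
    [NeZero q] (ω : Multiplicative (ZMod q) ≃* (Q : Subgroup G)) :
    ∃ D X y δ ε, CycStr p (Set.univ : Set (IrrCharacter G)) (inertR ω ⊤) D X y δ ε ∧
      SecSys p M (Set.univ : Set (IrrCharacter G)) (Finset.univ.erase 0)
        (fun χ i => D (χ : G → ℂ) i) q ∧
      ∀ θ, IsClassFunction G θ → ∀ i ≠ 0, D θ i = θ (ex ω i : (Q : Subgroup G)) := by
  have := charP_resField hM
  have hm := maxBP_univ hM Q hC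
  obtain ⟨Z, hZ, hZc⟩ := exists_card_eq_prime Q.isPGroup' h1
  obtain ⟨c, h⟩ := exists_cycSet hM (isPBlock_univ_of_centralizer_le hM Q Q.isPGroup' hC) hm ω hZ
    hZc rfl
  have hN : Alg.nst ⊤ (Q : Subgroup G) (1 : MonoidAlgebra (resField M) G) = ⊤ := by
    rw [hm.of.pair.nst_eq_of_aug (map_one _), normalizer_eq_top, top_inf_eq]
  have hCp : IsPGroup p (centralizer (Z : Set G)) := Q.isPGroup'.to_le fun g hg =>
    hC (h.mem_centralizer_of_mem_C (hN.ge (mem_top g)) hg)
  have hχ : irrOne _ ∈ c := block_eq_univ_of_isPGroup hM hCp h.hc ▸ Set.mem_univ _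
  have hs : StableUnder (Alg.nst ⊤ (Q : Subgroup G) (1 : MonoidAlgebra (resField M) G))
      (irrOne (centralizer (Z : Set G)) : centralizer (Z : Set G) → ℂ) := fun _ _ _ _ _ => rfl
  obtain ⟨D, hD, hstr⟩ := h.exists_cycStr hχ hs
  obtain ⟨X, y, δ, ε, s, -⟩ := hstr (irrOne G)
  refine ⟨D, X, y, δ, ε, hN ▸ s, h.secSys hχ hs hD s, fun θ hθ i hi => ?_⟩
  obtain ⟨f, hf⟩ := h.exists_ple i
  obtain rfl := eq_one_of_isPrim_of_isPGroup hM (hCp.to_le (inf_le_right.trans
    (h.cent_le' (ex ω i).2 (h.ex_ne_one hi)))) hf.left.prim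
  have h2 := hD θ hθ i hi _ _ (pPart_eq_self_iff.2 (orderOf_eq_pow_of_mem Q.isPGroup' (ex ω i).2))
    hf
  rw [tl_one hθ, show ((ex ω i : (Q : Subgroup G)) : G) =
    (⟨_, h.PC (ex ω i).2⟩ : centralizer (Z : Set G)) from rfl, lpsi_coe, res_one,
    tl_one (irrOne _).2.isClassFunction] at h2
  exact (h2.trans (mul_one _)).symm

omit hp in
theorem FreeR.rrel_of_rsum_const {q : ℕ} [NeZero q] {R : Subgroup (ZMod q)ˣ} (hR : FreeR R)
    {j : ZMod q} (hj : j ≠ 0) {a : ℂ} (h : ∀ i ≠ 0, rsum R (j * i) = a) {l : ZMod q}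
    (hl : l ≠ 0) : RRel R j l := by
  classical
  have := Fintype.ofFinite R
  have key : ∀ l ≠ 0, (if RRel R j l then (q : ℂ) else 0) = rsum R 0 - a := fun l hl => by
    have h1 : ∑ i, rsum R (j * i) * ech (i * -l) = rsum R 0 - a := by
      rw [← Finset.add_sum_erase _ _ (Finset.mem_univ 0), Finset.sum_congr rfl fun i hi => by
        rw [h i (Finset.mem_erase.1 hi).1], ← Finset.mul_sum, sum_erase_ech (neg_ne_zero.2 hl)]
      simp [sub_eq_add_neg]
    rw [← h1, ← hR.sum_ite hj l]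
    simp only [rsum_eq, Finset.sum_mul]
    rw [Finset.sum_comm]
    refine Finset.sum_congr rfl fun r _ => ?_
    rw [Finset.sum_congr rfl fun i _ => by
      rw [← ech_add, show ((r : (ZMod q)ˣ) : ZMod q) * (j * i) + i * -l =
        i * (((r : (ZMod q)ˣ) : ZMod q) * j - l) by ring], sum_ech_mul]
    exact if_congr (by rw [sub_eq_zero, eq_comm]) rfl rfl
  by_contra h1
  have h2 := key l hl
  rw [if_neg h1, ← key j hj, if_pos (RRel.refl R j)] at h2
  exact NeZero.ne (q : ℂ) h2.symm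

theorem eq_of_card_eq_of_dvd {a : ℕ} {R S : Subgroup (ZMod (p ^ a))ˣ}
    (h : Nat.card R = Nat.card S) (hd : Nat.card R ∣ p - 1) : R = S := by
  by_cases h2 : p = 2
  · subst h2
    have h1 := Nat.dvd_one.1 hd
    exact (card_eq_one.1 h1).trans (card_eq_one.1 (h.symm.trans h1)).symm
  have := ZMod.isCyclic_units_of_prime_pow p hp.out h2 a
  obtain ⟨g, hg⟩ := IsCyclic.exists_generator (α := (ZMod (p ^ a))ˣ)
  have key : ∀ T : Subgroup (ZMod (p ^ a))ˣ, T = zpowers (g ^ T.index) := fun T =>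
    (eq_of_le_of_card_ge (zpowers_le.2 (T.pow_index_mem g)) (by
      have h3 := T.card_mul_index
      rw [Nat.card_zpowers, orderOf_pow' _ T.index_ne_zero_of_finite,
        orderOf_eq_card_of_forall_mem_zpowers hg, Nat.gcd_eq_right T.index_dvd_card, ← h3,
        Nat.mul_div_cancel _ (Nat.pos_of_ne_zero T.index_ne_zero_of_finite)])).symm
  have h3 : R.index = S.index := by
    have := R.card_mul_index.trans S.card_mul_index.symm
    rw [h] at this
    exact Nat.eq_of_mul_eq_mul_left Nat.card_pos this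
  rw [key R, key S, h3]

omit hp in
theorem commutator_le_centralizer_of_ex {Q : Subgroup G} [Q.Normal] {q : ℕ} [NeZero q]
    (ω : Multiplicative (ZMod q) ≃* Q) : commutator G ≤ centralizer (Q : Set G) := by
  refine commutator_le.2 fun x _ y _ v hv => ?_
  obtain ⟨r, hr⟩ := exists_mul_of_mem_normalizer ω (g := x⁻¹) (normalizer_eq_top Q ▸ mem_top _)
  obtain ⟨s, hs⟩ := exists_mul_of_mem_normalizer ω (g := y⁻¹) (normalizer_eq_top Q ▸ mem_top _)
  have h1 : v = (ex ω (lg ω ⟨v, hv⟩) : Q) := by rw [ex_lg]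
  have h2 : y⁻¹ * (x⁻¹ * v * x⁻¹⁻¹) * y⁻¹⁻¹ = x⁻¹ * (y⁻¹ * v * y⁻¹⁻¹) * x⁻¹⁻¹ := by
    rw [h1, hr, hs, hs, hr, mul_left_comm]
  rw [commutatorElement_def]
  calc v * (x * y * x⁻¹ * y⁻¹) = x * y * (y⁻¹ * (x⁻¹ * v * x⁻¹⁻¹) * y⁻¹⁻¹) * x⁻¹ * y⁻¹ := by group
    _ = x * y * x⁻¹ * y⁻¹ * v := by rw [h2]; group

omit hp in
theorem index_le_ncard_ker {Q : Subgroup G} (hQ : commutator G ≤ Q) :
    Q.index ≤ {η : IrrCharacter G | ∀ x ∈ Q, (η : G → ℂ) x = (η : G → ℂ) 1}.ncard := by
  rw [← card_linAnn hQ, ← Nat.card_coe_set_eq]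
  exact Nat.card_le_card_of_injective
    (fun l => ⟨⟨_, isIrrCharacter_hom l.1⟩, fun x hx => by simp [l.2 x hx]⟩)
    fun l l' h => Subtype.ext (hom_coe_inj (congrArg (fun η => η.1.1) h))

end Cfsg.Agent.Block
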